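import Mathlib
import Cfsg.Agent.Transfer.NilpotentHall
import Cfsg.Agent.Solvable.SchurZassenhaus

/-!
A Hall subgroup central in its normalizer: its Sylow subgroups are central in their normalizers,
so it has a normal complement (Burnside).
-/

open scoped Pointwise

namespace CfsgLib.Transfer

universe u

theorem normalizer_le_centralizer_sylow_of_hall_aux :
    ∀ (n : ℕ) (G : Type u) [Group G] [Finite G], Nat.card G = n → ∀ H : Subgroup G,
      (Nat.card H).Coprime H.index →
      Subgroup.normalizer (H : Set G) ≤ Subgroup.centralizer (H : Set G) →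
      ∀ (p : ℕ) [Fact p.Prime] (P : Sylow p G), (P : Subgroup G) ≤ H →
        Subgroup.normalizer ((P : Subgroup G) : Set G) ≤
          Subgroup.centralizer ((P : Subgroup G) : Set G) := by
  intro n
  induction n using Nat.strong_induction_on with
  | h n ih =>
  intro G _ _ hn H hHall hc p hpF P hPH
  have hHab : H ≤ Subgroup.centralizer (H : Set G) := Subgroup.le_normalizer.trans hc
  haveI hHcomm : IsMulCommutative H :=
    ⟨⟨fun a b => Subtype.ext (Subgroup.mem_centralizer_iff.mp (hHab b.2) a a.2)⟩⟩
  -- inheritance to subgroups containing `H`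
  have hsub : ∀ M : Subgroup G, H ≤ M → Nat.card M < n → ∀ (q : ℕ) [Fact q.Prime] (Q : Sylow q M),
      (Q : Subgroup M) ≤ H.subgroupOf M →
      Subgroup.normalizer ((Q : Subgroup M) : Set M) ≤
        Subgroup.centralizer ((Q : Subgroup M) : Set M) := by
    intro M hHM hlt q _ Q hQ
    refine ih _ hlt M rfl (H.subgroupOf M) ?_ ?_ q Q hQ
    · rw [Nat.card_congr (Subgroup.subgroupOfEquivOfLe hHM).toEquiv]
      exact hHall.coprime_dvd_right ((dvd_mul_right (H.relIndex M) M.index).trans
        (dvd_of_eq (Subgroup.relIndex_mul_index hHM)))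
    · intro g hg
      have hg' : (g : G) ∈ Subgroup.normalizer (H : Set G) := by
        rw [← Subgroup.mem_subgroupOf, Subgroup.subgroupOf_normalizer_eq hHM]
        exact hg
      rw [Subgroup.mem_centralizer_iff]
      intro x hx
      exact Subtype.ext (Subgroup.mem_centralizer_iff.mp (hc hg') x hx)
  set M := Subgroup.normalizer ((P : Subgroup G) : Set G) with hM
  have hPP : (P : Subgroup G) ≤ Subgroup.centralizer ((P : Subgroup G) : Set G) :=
    hPH.trans (hHab.trans (Subgroup.centralizer_le hPH))
  have hHC : H ≤ Subgroup.centralizer ((P : Subgroup G) : Set G) :=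
    hHab.trans (Subgroup.centralizer_le hPH)
  have hHM : H ≤ M := hHC.trans (Subgroup.centralizer_le_normalizer _)
  by_cases hMtop : Nat.card M < n
  · intro g hg
    have h1 := hsub M hHM hMtop p (P.subtype (hPH.trans hHM))
      (fun x hx => hPH hx) (x := ⟨g, hg⟩)
      (by
        haveI : (((P.subtype (hPH.trans hHM) : Sylow p M)) : Subgroup M).Normal :=
          Subgroup.normal_in_normalizer
        rw [Subgroup.normalizer_eq_top]
        exact Subgroup.mem_top _)
    rw [Subgroup.mem_centralizer_iff]
    intro x hx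
    exact congrArg Subtype.val (Subgroup.mem_centralizer_iff.mp h1 ⟨x, hPH.trans hHM hx⟩ hx)
  -- now `P` is normal in `G`
  have hMeq : M = ⊤ := Subgroup.eq_top_of_card_eq M
    (le_antisymm M.card_le_card_group (hn ▸ not_lt.mp hMtop))
  haveI hPn : (P : Subgroup G).Normal := Subgroup.normalizer_eq_top_iff.mp hMeq
  set C := Subgroup.centralizer ((P : Subgroup G) : Set G) with hC
  haveI hCn : C.Normal := inferInstance
  by_cases hCtop : Nat.card C < n
  swap
  · intro g _
    rw [Subgroup.eq_top_of_card_eq C (le_antisymm C.card_le_card_group (hn ▸ not_lt.mp hCtop))]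
    exact Subgroup.mem_top g
  -- `C` is a proper subgroup, with a normal complement `K` to `H`
  have hcardHC : Nat.card (H.subgroupOf C) = Nat.card H :=
    Nat.card_congr (Subgroup.subgroupOfEquivOfLe hHC).toEquiv
  have hHallC : (Nat.card (H.subgroupOf C)).Coprime (H.subgroupOf C).index := by
    rw [hcardHC]
    exact hHall.coprime_dvd_right ((dvd_mul_right (H.relIndex C) C.index).trans
      (dvd_of_eq (Subgroup.relIndex_mul_index hHC)))
  obtain ⟨K0, hK0n, hK0⟩ := exists_normal_complement_of_forall_npc (H.subgroupOf C) hHallC (by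
    intro q hq hqH
    haveI := Fact.mk hq
    haveI := hHcomm
    obtain ⟨Q0⟩ : Nonempty (Sylow q (H.subgroupOf C)) := inferInstance
    obtain ⟨Q, hQ⟩ := (Q0.2.map (H.subgroupOf C).subtype).exists_le_sylow
    have heq : (Q0 : Subgroup (H.subgroupOf C)).map (H.subgroupOf C).subtype = (Q : Subgroup C) := by
      refine Subgroup.eq_of_le_of_card_ge hQ (le_of_eq ?_)
      rw [Subgroup.card_map_of_injective (H.subgroupOf C).subtype_injective,
        Sylow.card_eq_multiplicity, Sylow.card_eq_multiplicity, ← (H.subgroupOf C).card_mul_index,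
        Nat.factorization_mul Nat.card_pos.ne' Subgroup.index_ne_zero_of_finite, Finsupp.add_apply,
        Nat.factorization_eq_zero_of_not_dvd
          (fun hd => hq.ne_one (Nat.eq_one_of_dvd_coprimes hHallC hqH hd)), add_zero]
    exact hasNormalPComplement_of_normalizer_le_centralizer Q
      (hsub C hHC hCtop q Q (heq ▸ Subgroup.map_subtype_le _)))
  have hK0card : Nat.card K0 = (H.subgroupOf C).index := hK0.index_eq_card.symm
  have hK0cop : (Nat.card K0).Coprime (Nat.card H) := by
    rw [hK0card, ← hcardHC]; exact hHallC.symm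
  have hK0mem : ∀ c : C, c ∈ K0 ↔ (orderOf c).Coprime (Nat.card H) := by
    intro c
    refine ⟨fun h => hK0cop.coprime_dvd_left (Subgroup.orderOf_dvd_natCard K0 h), fun h => ?_⟩
    rw [← QuotientGroup.eq_one_iff, ← orderOf_eq_one_iff]
    refine Nat.eq_one_of_dvd_coprimes h (orderOf_map_dvd (QuotientGroup.mk' K0) c) ?_
    refine (orderOf_dvd_natCard _).trans (dvd_of_eq ?_)
    rw [← Subgroup.index_eq_card, hK0.symm.index_eq_card, hcardHC]
  set K := K0.map C.subtype with hK
  haveI hKn : K.Normal := by
    constructor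
    rintro _ ⟨c, hc', rfl⟩ g
    refine ⟨⟨g * c * g⁻¹, hCn.conj_mem _ c.2 g⟩, ?_, rfl⟩
    rw [SetLike.mem_coe, hK0mem] at hc' ⊢
    rw [← Subgroup.orderOf_coe] at hc' ⊢
    change (orderOf (MulAut.conj g (c : G))).Coprime (Nat.card H)
    rwa [MulEquiv.orderOf_eq]
  by_cases hK1 : K = ⊥
  · -- then `C = H`, so `H` is normal, hence central
    intro g _
    have hCH : C = H := by
      refine le_antisymm (fun c hc' => ?_) hHC
      obtain ⟨⟨k, h⟩, hkh, -⟩ := Subgroup.IsComplement.existsUnique hK0 ⟨c, hc'⟩
      have hk1 : ((k : C) : G) = 1 := by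
        rw [← Subgroup.mem_bot, ← hK1]
        exact Subgroup.mem_map_of_mem C.subtype k.2
      have h2 : ((k : C) : G) * ((h : C) : G) = c := congrArg Subtype.val hkh
      rw [← h2, hk1, one_mul]
      exact h.2
    haveI : H.Normal := hCH ▸ hCn
    exact Subgroup.centralizer_le hPH (hc (by rw [Subgroup.normalizer_eq_top]; exact Subgroup.mem_top g))
  -- pass to `G ⧸ K`
  set π := QuotientGroup.mk' K with hπ
  have hKH : (Nat.card K).Coprime (Nat.card H) := by
    rwa [hK, Subgroup.card_map_of_injective C.subtype_injective]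
  have hdisj : H ⊓ K = ⊥ := Subgroup.inf_eq_bot_of_coprime hKH.symm
  have hcardmap : Nat.card (H.map π) = Nat.card H := by
    have hinj : Function.Injective (π.comp H.subtype) := by
      rw [← MonoidHom.ker_eq_bot_iff, eq_bot_iff]
      intro x hx
      rw [MonoidHom.mem_ker, MonoidHom.comp_apply, hπ, QuotientGroup.mk'_apply,
        QuotientGroup.eq_one_iff] at hx
      exact Subtype.ext (hdisj.le ⟨x.2, hx⟩)
    refine ((Nat.card_congr (MonoidHom.ofInjective hinj).toEquiv).trans ?_).symm
    rw [MonoidHom.range_comp, Subgroup.range_subtype]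
  have hlt : Nat.card (G ⧸ K) < n := by
    rw [← Subgroup.index_eq_card, ← hn, ← K.card_mul_index]
    exact lt_mul_of_one_lt_left (Nat.pos_of_ne_zero Subgroup.index_ne_zero_of_finite)
      (K.one_lt_card_iff_ne_bot.mpr hK1)
  have hπs : Function.Surjective π := QuotientGroup.mk'_surjective K
  have key := ih _ hlt (G ⧸ K) rfl (H.map π) ?_ ?_ p (P.mapSurjective hπs) (Subgroup.map_mono hPH)
  · intro g hg
    have hg' : π g ∈ Subgroup.normalizer (((P : Subgroup G).map π : Subgroup (G ⧸ K)) : Set (G ⧸ K)) := by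
      haveI : ((P : Subgroup G).map π).Normal := hPn.map π hπs
      rw [Subgroup.normalizer_eq_top]
      exact Subgroup.mem_top _
    have h1 := Subgroup.mem_centralizer_iff.mp (key hg')
    rw [Subgroup.mem_centralizer_iff]
    intro x hx
    have h2 : π x * π g = π g * π x := h1 (π x) ⟨x, hx, rfl⟩
    have h3 : g * x * g⁻¹ * x⁻¹ ∈ (P : Subgroup G) ⊓ K := by
      refine ⟨(P : Subgroup G).mul_mem (hPn.conj_mem x hx g) ((P : Subgroup G).inv_mem hx), ?_⟩
      change g * x * g⁻¹ * x⁻¹ ∈ K
      rw [← QuotientGroup.eq_one_iff]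
      change π (g * x * g⁻¹ * x⁻¹) = 1
      rw [map_mul, map_mul, map_mul, map_inv, map_inv, ← h2]
      group
    rw [Subgroup.inf_eq_bot_of_coprime (hKH.coprime_dvd_right (Subgroup.card_dvd_of_le hPH)).symm,
      Subgroup.mem_bot] at h3
    exact (mul_inv_eq_iff_eq_mul.mp (mul_inv_eq_one.mp h3)).symm
  · rw [hcardmap]
    exact hHall.coprime_dvd_right (Subgroup.index_map_dvd H hπs)
  · intro q hq
    obtain ⟨g, rfl⟩ := hπs q
    have hg : g ∈ Subgroup.normalizer ((H ⊔ K : Subgroup G) : Set G) := by
      have h1 : g ∈ (Subgroup.normalizer ((H.map π : Subgroup (G ⧸ K)) : Set (G ⧸ K))).comap π := hq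
      rw [Subgroup.comap_normalizer_eq_of_surjective _ hπs,
        Subgroup.comap_map_eq, hπ, QuotientGroup.ker_mk'] at h1
      exact h1
    have hgH : MulAut.conj g • H ⊔ K = H ⊔ K := by
      refine Subgroup.eq_of_le_of_card_ge (sup_le ?_ le_sup_right) (le_of_eq ?_)
      · rintro _ ⟨x, hx, rfl⟩
        exact (Subgroup.mem_normalizer_iff.mp hg x).mp (Subgroup.mem_sup_left hx)
      · have hmapeq : MulAut.conj g • H ⊔ K = (H ⊔ K).map (MulAut.conj g).toMonoidHom := by
          rw [Subgroup.map_sup]
          congr 1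
          refine le_antisymm ?_ ?_
          · intro k hk
            exact ⟨g⁻¹ * k * g, by simpa using hKn.conj_mem k hk g⁻¹, by simp [mul_assoc]⟩
          · rintro _ ⟨k, hk, rfl⟩
            exact hKn.conj_mem k hk g
        rw [hmapeq, Subgroup.card_map_of_injective (MulAut.conj g).injective]
    obtain ⟨k, hk, hke⟩ := CfsgLib.Solvable.exists_conj_of_sup_eq K H (MulAut.conj g • H) hgH.symm
      hKH.symm (by rw [CfsgLib.Solvable.card_conj_smul]; exact hKH.symm)
      (Or.inr (Group.isSolvable_of_comm (fun a b => mul_comm' a b)))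
    have hkg : k⁻¹ * g ∈ Subgroup.normalizer (H : Set G) := by
      refine Subgroup.mem_normalizer_fintype fun x hx => ?_
      have h1 : g * x * g⁻¹ ∈ MulAut.conj g • H := ⟨x, hx, rfl⟩
      rw [← hke] at h1
      obtain ⟨y, hy, hye⟩ := h1
      have h2 : k * y * k⁻¹ = g * x * g⁻¹ := hye
      have h3 : k⁻¹ * g * x * (k⁻¹ * g)⁻¹ = y := by
        calc k⁻¹ * g * x * (k⁻¹ * g)⁻¹ = k⁻¹ * (g * x * g⁻¹) * k := by group
          _ = y := by rw [← h2]; group
      rw [h3]
      exact hy
    rw [Subgroup.mem_centralizer_iff]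
    rintro _ ⟨x, hx, rfl⟩
    have h1 := congrArg π (Subgroup.mem_centralizer_iff.mp (hc hkg) x hx)
    simpa [map_mul, map_inv, hπ, (QuotientGroup.eq_one_iff k).mpr hk] using h1

/-- A Hall subgroup contained in the centre of its normalizer has a normal complement. -/
theorem exists_normal_complement_of_normalizer_le_centralizer_hall {G : Type u} [Group G] [Finite G]
    (H : Subgroup G) (hHall : (Nat.card H).Coprime H.index)
    (h : Subgroup.normalizer (H : Set G) ≤ Subgroup.centralizer (H : Set G)) :
    ∃ N : Subgroup G, N.Normal ∧ N.IsComplement' H := by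
  refine exists_normal_complement_of_forall_npc H hHall fun p hp hpH => ?_
  haveI := Fact.mk hp
  obtain ⟨Q0⟩ : Nonempty (Sylow p H) := inferInstance
  obtain ⟨P, hP⟩ := (Q0.2.map H.subtype).exists_le_sylow
  have heq : (Q0 : Subgroup H).map H.subtype = (P : Subgroup G) := by
    refine Subgroup.eq_of_le_of_card_ge hP (le_of_eq ?_)
    rw [Subgroup.card_map_of_injective H.subtype_injective, Sylow.card_eq_multiplicity,
      Sylow.card_eq_multiplicity, ← H.card_mul_index, Nat.factorization_mul Nat.card_pos.ne'
        Subgroup.index_ne_zero_of_finite, Finsupp.add_apply,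
      Nat.factorization_eq_zero_of_not_dvd
        (fun hd => hp.ne_one (Nat.eq_one_of_dvd_coprimes hHall hpH hd)), add_zero]
  exact hasNormalPComplement_of_normalizer_le_centralizer P
    (normalizer_le_centralizer_sylow_of_hall_aux _ G rfl H hHall h p P
      (heq ▸ Subgroup.map_subtype_le _))

end CfsgLib.Transfer
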