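import Mathlib
import Cfsg.Agent.Transfer.SmallRank
import Cfsg.Agent.LocalCharP.SL2Three

/-!
A 3-element acting nontrivially on a subgroup of a generalized quaternion group gives a section
isomorphic to `SL(2,3)`.
-/

open scoped Pointwise

namespace CfsgLib.Transfer

universe u

variable {G : Type u} [Group G]

theorem mul_self_mem_three_power {g : G} {k : ℕ} (hg : g ^ 3 ^ k = 1) :
    g ∈ Subgroup.zpowers (g * g) := by
  have h2 : 2 * ((3 ^ k + 1) / 2) = 3 ^ k + 1 :=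
    Nat.two_mul_div_two_of_even ((Odd.pow (by decide)).add_one)
  refine ⟨((3 ^ k + 1) / 2 : ℕ), ?_⟩
  show (g * g) ^ (((3 ^ k + 1) / 2 : ℕ) : ℤ) = g
  rw [zpow_natCast, ← sq, ← pow_mul, h2, pow_succ, hg, one_mul]

/-- The final identification. -/
theorem sl_two_three_section_of_relations [Finite G] {Q : Subgroup G} {i j g : G} {k : ℕ}
    (hg : g ∈ Subgroup.normalizer (Q : Set G)) (hgo : g ^ 3 ^ k = 1)
    (hiQ : i ∈ Q) (hjQ : j ∈ Q) (hform : ∀ q ∈ Q, ∃ n : ℤ, q = i ^ n ∨ q = i ^ n * j)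
    (hi : i ^ 4 = 1) (hi2 : i * i ≠ 1) (hj : j * j = i * i) (hji : j * i * j⁻¹ = i⁻¹)
    (hgi : g * i * g⁻¹ = j) (hgj : g * j * g⁻¹ = i * j) :
    ∃ (H K : Subgroup G) (_hK : (K.subgroupOf H).Normal),
      Nonempty ((H ⧸ K.subgroupOf H) ≃* Matrix.SpecialLinearGroup (Fin 2) (ZMod 3)) := by
  have hgij : g * (i * j) * g⁻¹ = i := by
    calc g * (i * j) * g⁻¹ = (g * i * g⁻¹) * (g * j * g⁻¹) := by group
      _ = (j * i * j⁻¹) * (j * j) := by rw [hgi, hgj]; group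
      _ = i := by rw [hji, hj]; group
  have hg3i : g ^ 3 * i = i * g ^ 3 := by
    refine mul_inv_eq_iff_eq_mul.mp ?_
    calc g ^ 3 * i * (g ^ 3)⁻¹ = g * (g * (g * i * g⁻¹) * g⁻¹) * g⁻¹ := by
          simp [pow_succ, mul_assoc]
      _ = i := by rw [hgi, hgj, hgij]
  have hg3j : g ^ 3 * j = j * g ^ 3 := by
    rw [← hgi]
    calc g ^ 3 * (g * i * g⁻¹) = g * (g ^ 3 * i) * g⁻¹ := by group
      _ = g * (i * g ^ 3) * g⁻¹ := by rw [hg3i]
      _ = g * i * g⁻¹ * g ^ 3 := by group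
  set H := Q ⊔ Subgroup.zpowers g with hH
  set K := Subgroup.zpowers (g ^ 3) with hK
  have hKH : K ≤ H := Subgroup.zpowers_le.mpr
    (pow_mem (Subgroup.mem_sup_right (Subgroup.mem_zpowers g)) 3)
  have hHC : H ≤ Subgroup.centralizer (K : Set G) := by
    rw [Subgroup.le_centralizer_iff, hK, Subgroup.zpowers_le]
    have h : H ≤ Subgroup.centralizer ({g ^ 3} : Set G) := by
      refine sup_le (fun q hq => ?_) (Subgroup.zpowers_le.mpr ?_)
      · rw [Subgroup.mem_centralizer_singleton_iff]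
        obtain ⟨n, rfl | rfl⟩ := hform q hq
        · exact ((Commute.zpow_right hg3i n).eq).symm
        · exact (((Commute.zpow_right hg3i n).mul_right hg3j).eq).symm
      · rw [Subgroup.mem_centralizer_singleton_iff]
        exact (Commute.self_pow g 3).eq
    rw [Subgroup.mem_centralizer_iff]
    intro x hx
    exact Subgroup.mem_centralizer_singleton_iff.mp (h hx)
  have hKn : (K.subgroupOf H).Normal := by
    constructor
    intro x hx y
    rw [Subgroup.mem_subgroupOf] at hx ⊢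
    have h1 : (x : G) * (y : G) = (y : G) * (x : G) :=
      Subgroup.mem_centralizer_iff.mp (hHC y.2) _ hx
    simp only [Subgroup.coe_mul, InvMemClass.coe_inv, ← h1, mul_inv_cancel_right]
    exact hx
  refine ⟨H, K, hKn, ?_⟩
  haveI := hKn
  set π := QuotientGroup.mk' (K.subgroupOf H) with hπ
  have hker : ∀ x : H, π x = 1 ↔ (x : G) ∈ K := fun x => by
    rw [hπ, QuotientGroup.mk'_apply, QuotientGroup.eq_one_iff, Subgroup.mem_subgroupOf]
  set i' : H := ⟨i, Subgroup.mem_sup_left hiQ⟩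
  set j' : H := ⟨j, Subgroup.mem_sup_left hjQ⟩
  set g' : H := ⟨g, Subgroup.mem_sup_right (Subgroup.mem_zpowers g)⟩
  have hi4 : π i' ^ 4 = 1 := by
    rw [← map_pow, show i' ^ 4 = 1 from Subtype.ext hi, map_one]
  have hg3 : π g' ^ 3 = 1 := by
    rw [← map_pow, hker]; exact Subgroup.mem_zpowers _
  have hjj : π j' * π j' = π i' * π i' := by
    rw [← map_mul, ← map_mul, show j' * j' = i' * i' from Subtype.ext hj]
  refine CfsgLib.SL2Three.nonempty_mulEquiv (i := π i') (j := π j') (x := π g') ?_ hi4 ?_ hjj ?_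
    hg3 ?_ ?_
  · let f : Fin 4 × Fin 2 × Fin 3 → H ⧸ K.subgroupOf H := fun v =>
      π i' ^ (v.1 : ℕ) * π j' ^ (v.2.1 : ℕ) * π g' ^ (v.2.2 : ℕ)
    have hf : Function.Surjective f := by
      intro x
      obtain ⟨y, rfl⟩ := QuotientGroup.mk'_surjective (K.subgroupOf H) x
      have hy : (y : G) ∈ (Q : Set G) * (Subgroup.zpowers g : Set G) := by
        rw [← Subgroup.coe_mul_of_right_le_normalizer_left _ _ (Subgroup.zpowers_le.mpr hg)]
        exact y.2
      obtain ⟨q, hq, w, ⟨t, rfl⟩, hqw⟩ := Set.mem_mul.mp hy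
      obtain ⟨n, hn⟩ := hform q hq
      have hmod4 : π i' ^ ((n % 4).toNat) = π i' ^ n := by
        rw [← zpow_natCast, Int.toNat_of_nonneg (Int.emod_nonneg n (by norm_num)),
          zpow_eq_zpow_emod' n hi4]
        norm_num
      have hmod3 : π g' ^ ((t % 3).toNat) = π g' ^ t := by
        rw [← zpow_natCast, Int.toNat_of_nonneg (Int.emod_nonneg t (by norm_num)),
          zpow_eq_zpow_emod' t hg3]
        norm_num
      rcases hn with rfl | rfl
      · refine ⟨(⟨(n % 4).toNat, by omega⟩, 0, ⟨(t % 3).toNat, by omega⟩), ?_⟩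
        show π i' ^ ((n % 4).toNat) * π j' ^ 0 * π g' ^ ((t % 3).toNat) = π y
        rw [hmod4, hmod3, pow_zero, mul_one, ← map_zpow, ← map_zpow, ← map_mul]
        exact congrArg π (Subtype.ext hqw)
      · refine ⟨(⟨(n % 4).toNat, by omega⟩, 1, ⟨(t % 3).toNat, by omega⟩), ?_⟩
        show π i' ^ ((n % 4).toNat) * π j' ^ 1 * π g' ^ ((t % 3).toNat) = π y
        rw [hmod4, hmod3, pow_one, ← map_zpow, ← map_zpow, ← map_mul, ← map_mul]
        exact congrArg π (Subtype.ext hqw)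
    calc Nat.card (H ⧸ K.subgroupOf H) ≤ Nat.card (Fin 4 × Fin 2 × Fin 3) :=
          Nat.card_le_card_of_surjective f hf
      _ = 24 := by simp
  · intro h
    rw [← map_mul, hker] at h
    have h1 : orderOf (i * i) = 2 := by
      refine orderOf_eq_prime ?_ hi2
      calc (i * i) ^ 2 = i ^ 4 := by simp [pow_succ, mul_assoc]
        _ = 1 := hi
    have h2 : orderOf (i * i) ∣ 3 ^ k := by
      refine (orderOf_dvd_of_mem_zpowers h).trans (orderOf_dvd_of_pow_eq_one ?_)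
      rw [← pow_mul, mul_comm, pow_mul, hgo, one_pow]
    rw [h1] at h2
    exact absurd (Nat.prime_two.dvd_of_dvd_pow h2) (by norm_num)
  · rw [← map_mul, ← map_pow, ← map_mul]
    refine congrArg π (Subtype.ext ?_)
    show j * i = i ^ 3 * j
    rw [show i ^ 3 = i⁻¹ from eq_inv_of_mul_eq_one_left (by rw [← pow_succ]; exact hi), ← hji]
    group
  · rw [← map_mul, ← map_mul]
    exact congrArg π (Subtype.ext (mul_inv_eq_iff_eq_mul.mp hgi))
  · rw [← map_mul, ← map_mul, ← map_mul]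
    exact congrArg π (Subtype.ext (mul_inv_eq_iff_eq_mul.mp hgj))

/-- A 3-element acting nontrivially on a subgroup of a generalized quaternion group `T` (with cyclic
subgroup `A` of index 2) yields an `SL(2,3)` section. -/
theorem sl_two_three_section_of_quaternion [Finite G] {T A : Subgroup G} {z : G}
    (hT : IsPGroup 2 T) (hAT : A ≤ T) [IsCyclic A] (hAi : A.relIndex T = 2) (hz : z ≠ 1)
    (huniq : ∀ c ∈ A, c * c = 1 → c = 1 ∨ c = z)
    (hy : ∀ y ∈ T, y ∉ A → y * y = z ∧ ∀ c ∈ A, y * c * y⁻¹ = c⁻¹)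
    {Q : Subgroup G} (hQT : Q ≤ T) {g : G} (hg : g ∈ Subgroup.normalizer (Q : Set G)) {k : ℕ}
    (hgo : g ^ 3 ^ k = 1) (hgc : g ∉ Subgroup.centralizer (Q : Set G)) :
    ∃ (H K : Subgroup G) (_hK : (K.subgroupOf H).Normal),
      Nonempty ((H ⧸ K.subgroupOf H) ≃* Matrix.SpecialLinearGroup (Fin 2) (ZMod 3)) := by
  have hpar : ∀ a ∈ T, ∀ b ∈ T, a * b ∈ A ↔ (a ∈ A ↔ b ∈ A) := fun a ha b hb => by
    have h := Subgroup.mul_mem_iff_of_index_two (H := A.subgroupOf T) hAi (a := ⟨a, ha⟩) (b := ⟨b, hb⟩)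
    simpa [Subgroup.mem_subgroupOf] using h
  set B := A ⊓ Q with hB
  haveI : IsCyclic B := isCyclic_of_injective (Subgroup.inclusion (inf_le_left : B ≤ A))
    (Subgroup.inclusion_injective _)
  obtain ⟨⟨i, hiB⟩, hgen⟩ := IsCyclic.exists_generator (α := B)
  have hgen' : ∀ b ∈ B, ∃ n : ℤ, b = i ^ n := fun b hb => by
    obtain ⟨n, hn⟩ := Subgroup.mem_zpowers_iff.mp (hgen ⟨b, hb⟩)
    exact ⟨n, (congrArg Subtype.val hn).symm⟩
  have hBp : IsPGroup 2 B := hT.to_le (inf_le_right.trans hQT)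
  have hBdvd : (frattini B).index ∣ 2 ^ 1 := by
    rw [pow_one]; exact (CfsgLib.PGroup.isCyclic_iff_frattini_index hBp).mp inferInstance
  -- a 3-element moving `i` into `B` centralizes `Q`
  have hstab : ∀ w ∈ Subgroup.normalizer (Q : Set G), w ^ 3 ^ k = 1 → w * i * w⁻¹ ∈ B →
      w ∈ Subgroup.centralizer (Q : Set G) := by
    intro w hw hwo hwi
    have hwB : w ∈ Subgroup.normalizer (B : Set G) := by
      refine Subgroup.mem_normalizer_fintype fun b hb => ?_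
      obtain ⟨n, rfl⟩ := hgen' b hb
      rw [← conj_zpow]
      exact zpow_mem hwi n
    haveI : Fact (Nat.Prime 3) := ⟨Nat.prime_three⟩
    have hwC := Subgroup.mem_centralizer_iff.mp (mem_centralizer_of_frattini_index hBp hwB
      (q := 3) (k := k) (by norm_num) (orderOf_dvd_of_pow_eq_one hwo) hBdvd
      (fun a ha1 ha2 => by interval_cases a; norm_num))
    rw [Subgroup.mem_centralizer_iff]
    intro y hyQ
    by_cases hyA : y ∈ A
    · exact hwC y ⟨hyA, hyQ⟩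
    have hy' : w * y * w⁻¹ ∈ Q := (Subgroup.mem_normalizer_iff.mp hw y).mp hyQ
    have hy'A : w * y * w⁻¹ ∉ A := fun h => hyA
      ((Subgroup.mem_normalizer_iff.mp hwB y).mpr ⟨h, hy'⟩).1
    set d := y⁻¹ * (w * y * w⁻¹) with hd
    have hdB : d ∈ B := ⟨(hpar _ (hQT (inv_mem hyQ)) _ (hQT hy')).mpr
      (iff_of_false (fun h => hyA (by simpa using A.inv_mem h)) hy'A), Q.mul_mem (Q.inv_mem hyQ) hy'⟩
    have hit : ∀ n : ℕ, w ^ n * y * (w ^ n)⁻¹ = y * d ^ n := by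
      intro n
      induction n with
      | zero => simp
      | succ n ih =>
        have hc : w * d ^ n * w⁻¹ = d ^ n :=
          mul_inv_eq_iff_eq_mul.mpr (hwC _ (B.pow_mem hdB n)).symm
        calc w ^ (n + 1) * y * (w ^ (n + 1))⁻¹ = w * (w ^ n * y * (w ^ n)⁻¹) * w⁻¹ := by
              rw [pow_succ']; group
          _ = (w * y * w⁻¹) * (w * d ^ n * w⁻¹) := by rw [ih]; group
          _ = y * d ^ (n + 1) := by rw [hc, pow_succ', ← mul_assoc, hd, mul_inv_cancel_left]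
    have h0 := hit (3 ^ k)
    rw [hwo, inv_one, mul_one, one_mul, left_eq_mul] at h0
    obtain ⟨l, hl⟩ := IsPGroup.iff_orderOf.mp hBp ⟨d, hdB⟩
    rw [Subgroup.orderOf_mk] at hl
    have h1 : d = 1 := orderOf_eq_one_iff.mp (Nat.eq_one_of_dvd_coprimes
      (Nat.Coprime.pow l k (by norm_num : Nat.Coprime 2 3)) (dvd_of_eq hl)
      (orderOf_dvd_of_pow_eq_one h0))
    rw [hd, inv_mul_eq_one] at h1
    exact (mul_inv_eq_iff_eq_mul.mp h1.symm).symm
  have hjB : g * i * g⁻¹ ∉ B := fun h => hgc (hstab g hg hgo h)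
  have hkB : g * (g * i * g⁻¹) * g⁻¹ ∉ B := fun h => hgc (Subgroup.zpowers_le.mpr
    (hstab (g * g) (mul_mem hg hg) (by rw [← sq, ← pow_mul, mul_comm, pow_mul, hgo, one_pow])
      (by simpa [mul_assoc] using h)) (mul_self_mem_three_power hgo))
  set j := g * i * g⁻¹ with hj
  set k0 := g * j * g⁻¹ with hk0
  have hjQ : j ∈ Q := (Subgroup.mem_normalizer_iff.mp hg i).mp hiB.2
  have hk0Q : k0 ∈ Q := (Subgroup.mem_normalizer_iff.mp hg j).mp hjQ
  have hjA : j ∉ A := fun h => hjB ⟨h, hjQ⟩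
  have hk0A : k0 ∉ A := fun h => hkB ⟨h, hk0Q⟩
  obtain ⟨hjj, hjinv⟩ := hy j (hQT hjQ) hjA
  have hzA : z ∈ A := hjj ▸ (hpar j (hQT hjQ) j (hQT hjQ)).mpr Iff.rfl
  have hzz : z * z = 1 := by
    have h1 : j * z * j⁻¹ = z := by rw [← hjj]; group
    rw [hjinv z hzA] at h1
    nth_rewrite 1 [← h1]
    exact inv_mul_cancel z
  have hi2' : g * (i * i) * g⁻¹ = z := by rw [← hjj, hj]; group
  have hii : i * i = z := by
    refine (huniq _ (A.mul_mem hiB.1 hiB.1) ?_).resolve_left fun h => hz ?_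
    · calc (i * i) * (i * i) = g⁻¹ * ((g * (i * i) * g⁻¹) * (g * (i * i) * g⁻¹)) * g := by group
        _ = 1 := by rw [hi2', hzz]; group
    · rw [← hi2', h]; group
  have hi4 : i ^ 4 = 1 := by
    calc i ^ 4 = (i * i) * (i * i) := by simp [pow_succ, mul_assoc]
      _ = 1 := by rw [hii, hzz]
  have hi2 : i * i ≠ 1 := hii ▸ hz
  have hji := hjinv i hiB.1
  have hform : ∀ q ∈ Q, ∃ n : ℤ, q = i ^ n ∨ q = i ^ n * j := by
    intro q hq
    by_cases hqA : q ∈ A
    · obtain ⟨n, hn⟩ := hgen' q ⟨hqA, hq⟩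
      exact ⟨n, Or.inl hn⟩
    · obtain ⟨n, hn⟩ := hgen' (q * j⁻¹) ⟨(hpar _ (hQT hq) _ (hQT (inv_mem hjQ))).mpr
        (iff_of_false hqA (fun h => hjA (by simpa using A.inv_mem h))), Q.mul_mem hq (Q.inv_mem hjQ)⟩
      exact ⟨n, Or.inr (by rw [← hn, inv_mul_cancel_right])⟩
  obtain ⟨n, hn⟩ := hgen' (k0 * j⁻¹) ⟨(hpar _ (hQT hk0Q) _ (hQT (inv_mem hjQ))).mpr
    (iff_of_false hk0A (fun h => hjA (by simpa using A.inv_mem h))), Q.mul_mem hk0Q (Q.inv_mem hjQ)⟩
  rw [mul_inv_eq_iff_eq_mul, zpow_eq_zpow_emod' n hi4] at hn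
  have hcase : n % ((4 : ℕ) : ℤ) = 0 ∨ n % ((4 : ℕ) : ℤ) = 1 ∨ n % ((4 : ℕ) : ℤ) = 2 ∨
      n % ((4 : ℕ) : ℤ) = 3 := by omega
  rcases hcase with h | h | h | h <;> rw [h] at hn
  · exfalso
    rw [zpow_zero, one_mul, hk0] at hn
    exact hjA (mul_left_cancel (mul_right_cancel (hn.trans hj)) ▸ hiB.1)
  · rw [zpow_one] at hn
    exact sl_two_three_section_of_relations hg hgo hiB.2 hjQ hform hi4 hi2 (hjj.trans hii.symm)
      hji hj.symm hn
  · exfalso
    apply hjA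
    have h1 : k0 = j⁻¹ := by
      refine eq_inv_of_mul_eq_one_left ?_
      rw [hn, mul_assoc, hjj, zpow_two, hii, hzz]
    have h2 : g * j * g⁻¹ = g * i⁻¹ * g⁻¹ := by rw [← hk0, h1, hj]; group
    rw [mul_left_cancel (mul_right_cancel h2)]
    exact A.inv_mem hiB.1
  · -- the other orientation
    have h3 : i ^ (3 : ℤ) = i⁻¹ := by
      rw [show ((3 : ℤ)) = ((3 : ℕ) : ℤ) by rfl, zpow_natCast]
      exact eq_inv_of_mul_eq_one_left (by rw [← pow_succ]; exact hi4)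
    rw [h3] at hn
    have hjinv' : j⁻¹ * i * j = i⁻¹ := by
      have h4 : j * i⁻¹ * j⁻¹ = i := by simpa using hjinv i⁻¹ (A.inv_mem hiB.1)
      calc j⁻¹ * i * j = j⁻¹ * (j * i⁻¹ * j⁻¹) * j := by rw [h4]
        _ = i⁻¹ := by group
    refine sl_two_three_section_of_relations hg hgo (Q.inv_mem hiB.2) (Q.inv_mem hjQ)
      ?_ (by rw [inv_pow, hi4, inv_one]) ?_ ?_ ?_ ?_ ?_
    · intro q hq
      by_cases hqA : q ∈ A
      · obtain ⟨m, hm⟩ := hgen' q ⟨hqA, hq⟩
        exact ⟨-m, Or.inl (by rw [hm]; simp)⟩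
      · obtain ⟨m, hm⟩ := hgen' (q * j) ⟨(hpar _ (hQT hq) _ (hQT hjQ)).mpr
          (iff_of_false hqA hjA), Q.mul_mem hq hjQ⟩
        exact ⟨-m, Or.inr (by rw [eq_mul_inv_iff_mul_eq, hm]; simp)⟩
    · intro h
      apply hi2
      rw [← mul_inv_rev, inv_eq_one] at h
      exact h
    · rw [← mul_inv_rev, ← mul_inv_rev, hjj, hii]
    · rw [inv_inv, inv_inv]
      calc j⁻¹ * i⁻¹ * j = (j⁻¹ * i * j)⁻¹ := by group
        _ = i := by rw [hjinv', inv_inv]
    · rw [hj]; group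
    · calc g * j⁻¹ * g⁻¹ = k0⁻¹ := by rw [hk0]; group
        _ = (j⁻¹ * i * j) * j⁻¹ := by rw [hn]; group
        _ = i⁻¹ * j⁻¹ := by rw [hjinv']

end CfsgLib.Transfer
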